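import Cfsg.Agent.LargeFischer88.Mono
import Cfsg.Prelude.Def_Transfer

/-!
Large Fischer type, the stabiliser of a singular vector in a group containing a frame group with index two:
an elementary abelian normal subgroup of order at least `32` occurs only for the second orbit, and then it has
order `32` with quotient the alternating group of degree six.
-/

set_option autoImplicit false

namespace CfsgLib.LargeFischer88

open CfsgLib.LargeFischer85

variable {K : Type*} [Group K] [Finite K] {F : K →* Equiv.Perm (Fin 4096)} {Mb : Subgroup K}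
  {k : ZMod 3}

/-- The stabiliser of a vector. -/
def stabOf (F : K →* Equiv.Perm (Fin 4096)) (v : Fin 4096) : Subgroup K :=
  (MulAction.stabilizer (Equiv.Perm (Fin 4096)) v).comap F

omit [Finite K] in
theorem mem_stabOf {v : Fin 4096} {a : K} : a ∈ stabOf F v ↔ F a v = v := by
  simp [stabOf, MulAction.mem_stabilizer_iff]

/-- Orbit and stabiliser in a subgroup. -/
theorem card_inf_stabOf (L : Subgroup K) (v : Fin 4096) (p : Fin 4096 → Prop) [DecidablePred p]
    (h : ∀ u, p u ↔ ∃ a ∈ L, F a v = u) :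
    (Finset.univ.filter p).card * Nat.card ↥(L ⊓ stabOf F v) = Nat.card L := by
  let : MulAction L (Fin 4096) := MulAction.compHom _ (F.comp L.subtype)
  have h1 := Subgroup.card_eq_card_quotient_mul_card_subgroup (MulAction.stabilizer L v)
  rw [← Nat.card_congr (MulAction.orbitEquivQuotientStabilizer L v)] at h1
  have hst : (MulAction.stabilizer L v).map L.subtype = L ⊓ stabOf F v := by
    ext a
    rw [Subgroup.mem_inf, mem_stabOf]
    constructor
    · rintro ⟨⟨b, hb⟩, hb', rfl⟩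
      exact ⟨hb, hb'⟩
    · rintro ⟨ha, ha'⟩
      exact ⟨⟨a, ha⟩, ha', rfl⟩
  rw [← hst, Subgroup.card_map_of_injective (Subgroup.subtype_injective _), h1]
  refine congrArg (fun c => c * Nat.card ↥(MulAction.stabilizer (↥L) v)) ?_
  rw [Nat.card_coe_set_eq, ← Set.ncard_coe_finset]
  congr 1
  ext u
  simp only [Finset.coe_filter, Finset.mem_univ, true_and, Set.mem_setOf_eq, h,
    MulAction.mem_orbit_iff]
  exact ⟨fun ⟨a, ha, e⟩ => ⟨⟨a, ha⟩, e⟩, fun ⟨⟨a, ha⟩, e⟩ => ⟨a, ha, e⟩⟩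

omit [Finite K] in
/-- A homomorphism into the image of a subgroup lifts to the group. -/
theorem exists_lift_hom (hF : Function.Injective F) {A : Type*} [Group A] (f : A →* Equiv.Perm (Fin 4096))
    (hf : ∀ a, f a ∈ Mb.map F) : ∃ g : A →* K, ∀ a, g a ∈ Mb ∧ F (g a) = f a := by
  let e := Mb.equivMapOfInjective F hF
  refine ⟨Mb.subtype.comp (e.symm.toMonoidHom.comp (f.codRestrict _ hf)), fun a => ⟨SetLike.coe_mem _, ?_⟩⟩
  exact congrArg Subtype.val (e.apply_symm_apply ⟨f a, hf a⟩)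

omit [Finite K] in
theorem monP_mem (hM : IsFrameGroup (Mb.map F)) {σ : Equiv.Perm (Fin 6)} {ε : Fin 6 → ZMod 3}
    (hs : Equiv.Perm.sign σ = 1) (he : ∑ i, ε i = 0) : monP σ ε ∈ Mb.map F := by
  obtain ⟨m, hm, hmn⟩ := hM.mon σ hs ε he
  rwa [show monP σ ε = m from Equiv.ext fun n => (hmn n).symm]

/-- A group meeting a normal subgroup trivially gives a divisor of the order. -/
theorem card_mul_dvd (X N : Subgroup K) (hNX : N ≤ X) (hnorm : ∀ x ∈ X, ∀ y ∈ N, x * y * x⁻¹ ∈ N)
    {A : Type*} [Group A] (g : A →* K) (hgX : ∀ a, g a ∈ X) (hd : ∀ a, g a ∈ N → a = 1) :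
    Nat.card N * Nat.card A ∣ Nat.card X := by
  have : (N.subgroupOf X).Normal := ⟨fun y hy x => hnorm _ x.2 _ hy⟩
  have hψ : Function.Injective ((QuotientGroup.mk' (N.subgroupOf X)).comp (g.codRestrict X hgX)) :=
    (injective_iff_map_eq_one _).2 fun a ha =>
      hd a ((QuotientGroup.eq_one_iff (N := N.subgroupOf X) (g.codRestrict X hgX a)).1 ha)
  have h := Subgroup.card_eq_card_quotient_mul_card_subgroup (N.subgroupOf X)
  rw [Nat.card_congr (Subgroup.subgroupOfEquivOfLe hNX).toEquiv] at h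
  rw [h, mul_comm]
  exact mul_dvd_mul (Subgroup.card_dvd_of_injective _ hψ) dvd_rfl

omit [Finite K] in
theorem two_mul_inf {E : Subgroup K} (hN : Mb.Normal) (hidx : Mb.index = 2) :
    Nat.card E ≤ 2 * Nat.card ↥(E ⊓ Mb) := by
  have h := Subgroup.card_eq_card_quotient_mul_card_subgroup (Mb.subgroupOf E)
  have e : Nat.card ↥(Mb.subgroupOf E) = Nat.card ↥(E ⊓ Mb) := by
    rw [← Subgroup.inf_subgroupOf_left, Nat.card_congr (Subgroup.subgroupOfEquivOfLe inf_le_left).toEquiv]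
  rw [h, e]
  refine Nat.mul_le_mul_right _ (Nat.le_of_dvd two_pos ?_)
  rw [← hidx]
  exact Subgroup.relIndex_dvd_index_of_normal Mb E

theorem eq_one_of_sq_cube {a : K} (h2 : a ^ 2 = 1) (h3 : a ^ 3 = 1) : a = 1 := by
  rwa [pow_succ, h2, one_mul] at h3

/-- The stabiliser in the index two subgroup of a vector of the first orbit. -/
theorem card_inf_of_inOne (hF : Function.Injective F) (hM : IsFrameGroup (Mb.map F))
    (hk : IsOrbitClass (Mb.map F) k) (hinv : ∀ a n, inOne k (F a n) ↔ inOne k n) {v : Fin 4096}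
    (hv : inOne k v) : 378 * Nat.card ↥(Mb ⊓ stabOf F v) = 9797760 := by
  have h := card_inf_stabOf (F := F) Mb v (inOne k) fun u => by
    refine ⟨fun hu => ?_, ?_⟩
    · obtain ⟨_, ⟨a, ha, rfl⟩, hm⟩ := hk.one_trans v u hv hu
      exact ⟨a, ha, hm⟩
    · rintro ⟨a, -, rfl⟩
      exact (hinv a v).2 hv
  rwa [card_inOne, ← Subgroup.card_map_of_injective hF (K := Mb), hM.card] at h

theorem inTwo_iff_of (hzero : ∀ a, F a 0 = 0) (hsing : ∀ a n, sing (F a n) ↔ sing n)
    (hinv : ∀ a n, inOne k (F a n) ↔ inOne k n) (a : K) (n : Fin 4096) :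
    inTwo k (F a n) ↔ inTwo k n := by
  simp only [inTwo, hsing, hinv]
  refine and_congr_left' (not_congr ⟨fun h => (F a).injective (h.trans (hzero a).symm), ?_⟩)
  rintro rfl
  exact hzero a

/-- An elementary abelian normal subgroup of order at least `32` of a stabiliser puts the vector into the
second orbit. -/
theorem inTwo_of_normal_elementary (hF : Function.Injective F) (hM : IsFrameGroup (Mb.map F))
    (hN : Mb.Normal) (hidx : Mb.index = 2) (hk : IsOrbitClass (Mb.map F) k)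
    (hinv : ∀ a n, inOne k (F a n) ↔ inOne k n) {v : Fin 4096} (hv0 : v ≠ 0) (hvs : sing v)
    (E : Subgroup K) (hE : Cfsg.IsElementaryAbelian 2 E) (hcard : 32 ≤ Nat.card E)
    (hEX : E ≤ stabOf F v) (hnorm : ∀ x ∈ stabOf F v, ∀ y ∈ E, x * y * x⁻¹ ∈ E) : inTwo k v := by
  refine ⟨hv0, hvs, fun hv => ?_⟩
  obtain ⟨_, ⟨m, hm, rfl⟩, hmv⟩ := hk.one_trans oneVec v (inOne_oneVec k) hv
  have hconj : ∀ a, F a oneVec = oneVec → F (m * a * m⁻¹) v = v := by
    intro a ha
    simp only [map_mul, map_inv, Equiv.Perm.mul_apply]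
    rw [show (F m)⁻¹ v = oneVec by rw [← hmv]; exact (F m).symm_apply_apply _, ha, hmv]
  obtain ⟨T, hT⟩ := exists_lift_hom hF ((homE 0).comp eightGroup.subtype) fun σ =>
    monP_mem hM σ.2.1 (sum_twistE 0 _)
  have hTF : ∀ σ : eightGroup, F (T σ) = monP σ.1 0 := fun σ => by
    rw [(hT σ).2]
    show monP σ.1 (twistE 0 σ.1) = monP σ.1 0
    exact congrArg _ (funext fun i => by simp [twistE])
  let g : eightGroup →* K := (MulAut.conj m).toMonoidHom.comp T
  have hg : ∀ σ, g σ = m * T σ * m⁻¹ := fun _ => rfl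
  have hgX : ∀ σ, g σ ∈ Mb ⊓ stabOf F v := fun σ => by
    refine Subgroup.mem_inf.2 ⟨hN.conj_mem _ (hT σ).1 m, mem_stabOf.2 (hconj _ ?_)⟩
    rw [hTF, monP_apply]
    exact eightGroup_fix σ.1 σ.2
  have hd : ∀ σ, g σ ∈ E ⊓ Mb → σ = 1 := by
    intro σ hσ
    refine Subtype.ext (eightGroup_separated σ.1 σ.2 fun r i => ?_)
    obtain ⟨_, ⟨d, hd, hdF⟩⟩ : monP 1 (sepExp r) ∈ Mb.map F ∧ monP 1 (sepExp r) ∈ Mb.map F :=
      ⟨monP_mem hM (map_one _) (sum_sepExp r), monP_mem hM (map_one _) (sum_sepExp r)⟩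
    have hdX : m * d * m⁻¹ ∈ stabOf F v := mem_stabOf.2 (hconj _ (by
      rw [hdF, monP_apply]; exact sepExp_fix r))
    have hc : m * (d * T σ * d⁻¹ * (T σ)⁻¹) * m⁻¹ ∈ E := by
      have := mul_mem (hnorm _ hdX _ hσ.1) (inv_mem hσ.1)
      rw [hg] at this
      convert this using 1
      group
    have hsq := hE.2 _ hc
    rw [conj_pow, conj_eq_one_iff] at hsq
    have e : F (d * T σ * d⁻¹ * (T σ)⁻¹) =
        monP 1 (fun j => sepExp r j - sepExp r (σ.1⁻¹ j)) := by
      have hinv' : ∀ (τ : Equiv.Perm (Fin 6)) (η : Fin 6 → ZMod 3),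
          (monP τ η)⁻¹ = monP τ⁻¹ (fun j => -η (τ⁻¹ j)) := fun τ η => by
        rw [inv_eq_iff_mul_eq_one, monP_mul, mul_inv_cancel]
        refine Eq.trans (congrArg _ (funext fun j => ?_)) monP_one
        simp
      rw [map_mul, map_mul, map_mul, map_inv, map_inv, hdF, hTF, hinv', hinv', monP_mul, monP_mul,
        monP_mul]
      congr 1
      · simp
      · funext j
        simp only [Pi.zero_apply, neg_zero, zero_add, add_zero, Equiv.Perm.coe_one, id_eq, inv_one,
          Equiv.Perm.inv_def, Equiv.apply_symm_apply, one_mul, mul_one, Equiv.Perm.mul_apply, Equiv.Perm.one_symm]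
        abel
    have h2 := congrArg F hsq
    rw [map_pow, e, map_one, pow_two, monP_mul, ← monP_one] at h2
    have h3 := congrFun (monP_inj h2).2 (σ.1 i)
    simp only [Equiv.Perm.coe_one, id_eq, Equiv.Perm.inv_def, Equiv.symm_apply_apply, Pi.zero_apply] at h3
    have key : ∀ a b : ZMod 3, a - b + (a - b) = 0 → a = b := by decide
    exact key _ _ h3
  have h := card_mul_dvd (Mb ⊓ stabOf F v) (E ⊓ Mb) (le_inf inf_le_right (inf_le_left.trans hEX))
    (fun x hx y hy => Subgroup.mem_inf.2 ⟨hnorm x hx.2 y hy.1, hN.conj_mem _ hy.2 x⟩) g hgX hd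
  have hpg : IsPGroup 2 ↥(E ⊓ Mb) := fun a => ⟨1, by
    refine Subtype.ext ?_
    rw [pow_one, Subgroup.coe_pow, Subgroup.coe_one]
    exact hE.2 _ a.2.1⟩
  obtain ⟨j, hj⟩ := IsPGroup.iff_card.1 hpg
  have hbig := two_mul_inf (E := E) hN hidx
  have hst := card_inf_of_inOne hF hM hk hinv hv
  have h4 : 4 ≤ j := by
    by_contra hlt
    have : 2 ^ j ≤ 2 ^ 3 := Nat.pow_le_pow_right two_pos (by omega)
    omega
  obtain ⟨i, rfl⟩ := Nat.exists_eq_add_of_le h4
  rw [card_eightGroup, hj, show Nat.card ↥(Mb ⊓ stabOf F v) = 25920 by omega, pow_add,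
    mul_right_comm] at h
  have h128 : 128 ∣ 25920 := (dvd_mul_right _ (2 ^ i)).trans h
  norm_num at h128

/-- The stabiliser of a vector of the second orbit. -/
theorem structure_of_inTwo (hF : Function.Injective F) (hM : IsFrameGroup (Mb.map F))
    (hN : Mb.Normal) (hidx : Mb.index = 2) (hk : IsOrbitClass (Mb.map F) k)
    (hzero : ∀ a, F a 0 = 0) (hsing : ∀ a n, sing (F a n) ↔ sing n)
    (hinv : ∀ a n, inOne k (F a n) ↔ inOne k n) {v : Fin 4096} (hv : inTwo k v)
    (E : Subgroup K) (hE : Cfsg.IsElementaryAbelian 2 E) (hcard : 32 ≤ Nat.card E)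
    (hEX : E ≤ stabOf F v) (hnorm : ∀ x ∈ stabOf F v, ∀ y ∈ E, x * y * x⁻¹ ∈ E) :
    Nat.card E = 32 ∧ Nat.card ↥(stabOf F v) = 11520 ∧
      ∃ g : ↥(alternatingGroup (Fin 6)) →* K, (∀ a, g a ∈ Mb ⊓ stabOf F v) ∧
        ∀ a, g a ∈ E → a = 1 := by
  have htwo := inTwo_iff_of hzero hsing hinv
  obtain ⟨_, ⟨m, hm, rfl⟩, hmv⟩ := hk.two_trans (twoVec k) v (inTwo_twoVec k) hv
  obtain ⟨T, hT⟩ := exists_lift_hom hF
    ((homE (Pi.single 0 (k + 1))).comp (alternatingGroup (Fin 6)).subtype) fun σ =>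
      monP_mem hM (Equiv.Perm.mem_alternatingGroup.1 σ.2) (sum_twistE _ _)
  let g : ↥(alternatingGroup (Fin 6)) →* K := (MulAut.conj m).toMonoidHom.comp T
  have hgX : ∀ σ, g σ ∈ Mb ⊓ stabOf F v := fun σ => by
    refine Subgroup.mem_inf.2 ⟨hN.conj_mem _ (hT σ).1 m, mem_stabOf.2 ?_⟩
    show F (m * T σ * m⁻¹) v = v
    simp only [map_mul, map_inv, Equiv.Perm.mul_apply]
    rw [show (F m)⁻¹ v = twoVec k by rw [← hmv]; exact (F m).symm_apply_apply _, (hT σ).2]
    exact (congrArg (F m) (homE_vecE _ σ.1)).trans hmv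
  have hginj : Function.Injective g := (MulAut.conj m).injective.comp fun a b h => by
    have e := congrArg F h
    rw [(hT a).2, (hT b).2] at e
    exact Subtype.ext (homE_injective _ e)
  have hd : ∀ σ, g σ ∈ E → σ = 1 := by
    have : IsSimpleGroup ↥(alternatingGroup (Fin 6)) := alternatingGroup.isSimpleGroup (by simp)
    let N : Subgroup ↥(alternatingGroup (Fin 6)) := E.comap g
    have hNn : N.Normal := ⟨fun a ha b => by
      show g (b * a * b⁻¹) ∈ E
      rw [map_mul, map_mul, map_inv]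
      exact hnorm _ (hgX b).2 _ ha⟩
    intro σ hσ
    rcases IsSimpleGroup.eq_bot_or_eq_top_of_normal N hNn with h | h
    · exact (Subgroup.mem_bot.1 (h ▸ hσ : σ ∈ (⊥ : Subgroup _)))
    · exfalso
      let c : ↥(alternatingGroup (Fin 6)) :=
        ⟨Equiv.swap 0 1 * Equiv.swap 1 2, Equiv.Perm.mem_alternatingGroup.2 (by decide)⟩
      have hc : c ∈ N := h ▸ Subgroup.mem_top c
      have h1 := hE.2 _ hc
      rw [← map_pow] at h1
      have h2 : c ^ 2 = 1 := hginj (h1.trans (map_one g).symm)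
      have h3 := congrArg Subtype.val h2
      revert h3
      decide
  have hfull : Nat.card K = 2 * 9797760 := by
    rw [← Mb.card_mul_index, hidx, ← Subgroup.card_map_of_injective hF (K := Mb), hM.card, mul_comm]
  have horb : ∀ L : Subgroup K, Mb ≤ L → ∀ u, inTwo k u ↔ ∃ a ∈ L, F a v = u := by
    intro L hL u
    refine ⟨fun hu => ?_, ?_⟩
    · obtain ⟨_, ⟨a, ha, rfl⟩, hau⟩ := hk.two_trans v u hv hu
      exact ⟨a, hL ha, hau⟩
    · rintro ⟨a, -, rfl⟩
      exact (htwo a v).2 hv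
  have hst := card_inf_stabOf (F := F) Mb v (inTwo k) (horb Mb le_rfl)
  have hsK := card_inf_stabOf (F := F) ⊤ v (inTwo k) (horb ⊤ le_top)
  rw [card_inTwo, top_inf_eq, Subgroup.card_top, hfull] at hsK
  rw [card_inTwo, ← Subgroup.card_map_of_injective hF (K := Mb), hM.card] at hst
  have hcA : Nat.card ↥(alternatingGroup (Fin 6)) = 360 := by
    rw [Nat.card_eq_fintype_card, card_alternatingGroup, Fintype.card_fin]
    rfl
  have h := card_mul_dvd (Mb ⊓ stabOf F v) (E ⊓ Mb) (le_inf inf_le_right (inf_le_left.trans hEX))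
    (fun x hx y hy => Subgroup.mem_inf.2 ⟨hnorm x hx.2 y hy.1, hN.conj_mem _ hy.2 x⟩) g hgX
    fun σ hσ => hd σ hσ.1
  rw [hcA, show Nat.card ↥(Mb ⊓ stabOf F v) = 16 * 360 by omega] at h
  have h16 := Nat.le_of_dvd (by norm_num) (Nat.dvd_of_mul_dvd_mul_right (by norm_num) h)
  have hbig := two_mul_inf (E := E) hN hidx
  exact ⟨by omega, by omega, g, hgX, hd⟩

end CfsgLib.LargeFischer88
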