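import Cfsg.Agent.LargeFischer85.Setup
import Cfsg.Agent.LargeFischer85.FrameDefs
import Cfsg.Agent.LargeFischer88.Stab

/-!
Large Fischer type, given a frame and the orbit class: the conjugates of `z` in `Q` other than `z` are the
involutions with vectors in the second orbit, they form one orbit, and the structure of their stabilisers.

* `frameHom_zero`, `frameHom_sing`, `frameHom_inOne`: the read action respects zero, singularity, the orbit;
* `conj_inTwo`, `exists_conj_of_inTwo`, `isConj_iff_inTwo`;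
* `conjugate_orbit` (S5441), `conjugate_structure` (S5442).
-/

set_option autoImplicit false

namespace CfsgLib.LargeFischer88

open Cfsg CfsgLib.LargeFischer85

section Action

variable {K : Type*} [Group K] {q : V → ZMod 2} {act : K →* Equiv.Perm V} {Mb Cb : Subgroup K}
  {φ : Fin 4096 ≃ V}

theorem frameHom_zero (hfr : IsFrame q act Mb Cb φ) (hadd : ∀ a v w, act a (v + w) = act a v + act a w)
    (a : K) : frameHom φ act a 0 = 0 := by
  have h : act a 0 = 0 := by
    have h2 := hadd a 0 0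
    rw [add_zero] at h2
    exact left_eq_add.1 h2
  rw [frameHom_apply, hfr.map_zero, h, Equiv.symm_apply_eq, hfr.map_zero]

theorem frameHom_sing (hfr : IsFrame q act Mb Cb φ) (hq : ∀ a v, q (act a v) = q v) (a : K) (n : Fin 4096) :
    sing (frameHom φ act a n) ↔ sing n := by
  rw [hfr.sing_iff, hfr.sing_iff, frameHom_apply, Equiv.apply_symm_apply, hq]

theorem frameHom_inOne (hfr : IsFrame q act Mb Cb φ) (hadd : ∀ a v w, act a (v + w) = act a v + act a w)
    (hq : ∀ a v, q (act a v) = q v) {k : ZMod 3} (hk : IsOrbitClass (Mb.map (frameHom φ act)) k)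
    (a : K) (n : Fin 4096) : inOne k (frameHom φ act a n) ↔ inOne k n := by
  refine hk.stable _ (frameHom_zero hfr hadd a) (frameHom_sing hfr hq a) ?_ n
  rintro _ ⟨m, hm, rfl⟩
  exact ⟨a * m * a⁻¹, hfr.normal_Mb.conj_mem _ hm a, by simp only [map_mul, map_inv]⟩

end Action

variable {G : Type*} [Group G] [Finite G] {z : G}
  {Q : Subgroup (Subgroup.centralizer ({z} : Set G))} [Q.Normal] {q : V → ZMod 2} {pr : ↥Q → V}
  {act : (↥(Subgroup.centralizer ({z} : Set G)) ⧸ Q) →* Equiv.Perm V}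
  {Mb Cb : Subgroup (↥(Subgroup.centralizer ({z} : Set G)) ⧸ Q)} {φ : Fin 4096 ≃ V} {k : ZMod 3}

/-- The vector in the frame of an element of `Q`. -/
def vecOf (φ : Fin 4096 ≃ V) (pr : ↥Q → V) (s : ↥Q) : Fin 4096 := φ.symm (pr s)

/-- Everything known about a conjugate of `z` in `Q` other than `z`. -/
theorem conj_data (hF : IsOfLargeFischerTypeAt z Q) (hA : IsAction z Q q pr act)
    (hfr : IsFrame q act Mb Cb φ) (hk : IsOrbitClass (Mb.map (frameHom φ act)) k) (s : G)
    (hsc : s ∈ Subgroup.centralizer ({z} : Set G))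
    (hsQ : (⟨s, hsc⟩ : Subgroup.centralizer ({z} : Set G)) ∈ Q) (hs1 : s ≠ z) (g : G)
    (hg : g * z * g⁻¹ = s) :
    inTwo k (vecOf φ pr ⟨⟨s, hsc⟩, hsQ⟩) ∧
    ∀ X E : Subgroup (↥(Subgroup.centralizer ({z} : Set G)) ⧸ Q),
      X = ((Subgroup.centralizer ({z} : Set G) ⊓ Subgroup.centralizer ({s} : Set G)).subgroupOf
        (Subgroup.centralizer ({z} : Set G))).map (QuotientGroup.mk' Q) →
      E = ((((Q.map (Subgroup.centralizer ({z} : Set G)).subtype).map (MulAut.conj g).toMonoidHom) ⊓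
        Subgroup.centralizer ({z} : Set G)).subgroupOf (Subgroup.centralizer ({z} : Set G))).map
          (QuotientGroup.mk' Q) →
      IsElementaryAbelian 2 ((Q.map (Subgroup.centralizer ({z} : Set G)).subtype) ⊓
        ((Q.map (Subgroup.centralizer ({z} : Set G)).subtype)).map (MulAut.conj g).toMonoidHom) ∧
      Nat.card ↥((Q.map (Subgroup.centralizer ({z} : Set G)).subtype) ⊓
        ((Q.map (Subgroup.centralizer ({z} : Set G)).subtype)).map (MulAut.conj g).toMonoidHom) = 2 ^ 7 ∧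
      E ≤ X ∧ (∀ x ∈ X, ∀ y ∈ E, x * y * x⁻¹ ∈ E) ∧ IsElementaryAbelian 2 E ∧ Nat.card E = 32 ∧
      ∃ _ : (E.subgroupOf X).Normal,
        Nonempty (↥X ⧸ E.subgroupOf X ≃* alternatingGroup (Fin 6)) := by
  have hz : orderOf z = 2 := hF.1.1
  let su : ↥Q := ⟨⟨s, hsc⟩, hsQ⟩
  have hso : orderOf (su : Subgroup.centralizer ({z} : Set G)) = 2 := by
    rw [← Subgroup.orderOf_coe]
    show orderOf s = 2
    rw [← hg, ← MulAut.conj_apply, MulEquiv.orderOf_eq, hz]
  obtain ⟨hp0, hpq⟩ := (involution_iff hA su).1 ⟨hso, hs1⟩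
  set v := vecOf φ pr su with hv
  have hv0 : v ≠ 0 := fun h => hp0 (by
    rw [← hfr.map_zero, ← h, hv, vecOf, Equiv.apply_symm_apply])
  have hvs : sing v := by rw [hfr.sing_iff, hv, vecOf, Equiv.apply_symm_apply]; exact hpq
  have hinv := frameHom_inOne hfr hA.act_add hA.act_q hk
  have hinj := frameHom_injective φ hA.act_inj
  have main : ∀ X E : Subgroup (↥(Subgroup.centralizer ({z} : Set G)) ⧸ Q),
      X = ((Subgroup.centralizer ({z} : Set G) ⊓ Subgroup.centralizer ({s} : Set G)).subgroupOf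
        (Subgroup.centralizer ({z} : Set G))).map (QuotientGroup.mk' Q) →
      E = ((((Q.map (Subgroup.centralizer ({z} : Set G)).subtype).map (MulAut.conj g).toMonoidHom) ⊓
        Subgroup.centralizer ({z} : Set G)).subgroupOf (Subgroup.centralizer ({z} : Set G))).map
          (QuotientGroup.mk' Q) →
      X = stabOf (frameHom φ act) v ∧ 32 ≤ Nat.card E := by
    intro X E hX hE
    obtain ⟨-, hle, hmul, -⟩ := pair_structure hF ⟨hsc, hsQ⟩ hs1 hg X E hX hE
    refine ⟨?_, ?_⟩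
    · ext a
      rw [hX, mem_stabOf, frameHom_apply, hv, vecOf, Equiv.apply_symm_apply, φ.symm.injective.eq_iff]
      exact mem_stabilizer_iff hF hA su hp0 a
    · refine Nat.le_of_mul_le_mul_right ?_ (Nat.pow_pos (a := 2) (n := 7) two_pos)
      calc 32 * 2 ^ 7 = 2 ^ 12 := by norm_num
        _ = _ := hmul.symm
        _ ≤ Nat.card E * 2 ^ 7 := Nat.mul_le_mul_left _ hle
  have htwo : inTwo k v := by
    obtain ⟨hXs, h32⟩ := main _ _ rfl rfl
    obtain ⟨-, -, -, hEX, hnorm, hEe⟩ := pair_structure hF ⟨hsc, hsQ⟩ hs1 hg _ _ rfl rfl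
    exact inTwo_of_normal_elementary hinj hfr.group hfr.normal_Mb hfr.index_Mb hk hinv hv0 hvs _ hEe
      h32 (hXs ▸ hEX) fun x hx => hnorm x (hXs ▸ hx)
  refine ⟨htwo, fun X E hX hE => ?_⟩
  obtain ⟨hXs, h32⟩ := main X E hX hE
  obtain ⟨hI, -, hmul, hEX, hnorm, hEe⟩ := pair_structure hF ⟨hsc, hsQ⟩ hs1 hg X E hX hE
  obtain ⟨hcE, hcX, f, hfX, hfd⟩ := structure_of_inTwo hinj hfr.group hfr.normal_Mb hfr.index_Mb hk
    (frameHom_zero hfr hA.act_add) (frameHom_sing hfr hA.act_q) hinv htwo E hEe h32 (hXs ▸ hEX)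
    fun x hx => hnorm x (hXs ▸ hx)
  refine ⟨hI, ?_, hEX, hnorm, hEe, hcE, ?_⟩
  · rw [hcE] at hmul
    omega
  subst hXs
  have hn : (E.subgroupOf (stabOf (frameHom φ act) v)).Normal := ⟨fun y hy x => hnorm _ x.2 _ hy⟩
  refine ⟨hn, ?_⟩
  let ψ : ↥(alternatingGroup (Fin 6)) →*
      ↥(stabOf (frameHom φ act) v) ⧸ E.subgroupOf (stabOf (frameHom φ act) v) :=
    (QuotientGroup.mk' _).comp (f.codRestrict _ fun a => (hfX a).2)
  have hψ : Function.Injective ψ := (injective_iff_map_eq_one _).2 fun a ha =>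
    hfd a ((QuotientGroup.eq_one_iff (N := E.subgroupOf (stabOf (frameHom φ act) v))
      (f.codRestrict _ (fun b => (hfX b).2) a)).1 ha)
  have hquot : Nat.card (↥(stabOf (frameHom φ act) v) ⧸ E.subgroupOf (stabOf (frameHom φ act) v)) =
      Nat.card ↥(alternatingGroup (Fin 6)) := by
    have h := Subgroup.card_eq_card_quotient_mul_card_subgroup (E.subgroupOf (stabOf (frameHom φ act) v))
    rw [Nat.card_congr (Subgroup.subgroupOfEquivOfLe hEX).toEquiv, hcE, hcX] at h
    rw [Nat.card_eq_fintype_card (α := ↥(alternatingGroup (Fin 6))), card_alternatingGroup,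
      Fintype.card_fin, show Nat.factorial 6 / 2 = 360 from rfl]
    omega
  exact ⟨(MulEquiv.ofBijective ψ (hψ.bijective_of_nat_card_le hquot.le)).symm⟩

/-- The conjugates of `z` in `Q` other than `z` lie in the second orbit. -/
theorem conj_inTwo (hF : IsOfLargeFischerTypeAt z Q) (hA : IsAction z Q q pr act)
    (hfr : IsFrame q act Mb Cb φ) (hk : IsOrbitClass (Mb.map (frameHom φ act)) k) (s : ↥Q)
    (hs : IsConj z ((s : Subgroup.centralizer ({z} : Set G)) : G))
    (hs1 : ((s : Subgroup.centralizer ({z} : Set G)) : G) ≠ z) :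
    inTwo k (φ.symm (pr s)) := by
  obtain ⟨g, hg⟩ := isConj_iff.1 hs
  exact (conj_data hF hA hfr hk _ s.1.2 s.2 hs1 g hg).1

/-- Two elements of `Q` with vectors in the second orbit are conjugate in `H`. -/
theorem exists_conj_of_inTwo (hF : IsOfLargeFischerTypeAt z Q) (hA : IsAction z Q q pr act)
    (hfr : IsFrame q act Mb Cb φ) (hk : IsOrbitClass (Mb.map (frameHom φ act)) k) (s t : ↥Q)
    (hs : inTwo k (φ.symm (pr s))) (ht : inTwo k (φ.symm (pr t))) :
    ∃ h : Subgroup.centralizer ({z} : Set G),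
      h * (s : Subgroup.centralizer ({z} : Set G)) * h⁻¹ = t := by
  obtain ⟨_, ⟨a, -, rfl⟩, ha⟩ := hk.two_trans _ _ hs ht
  obtain ⟨h, rfl⟩ := QuotientGroup.mk'_surjective Q a
  rw [frameHom_apply, Equiv.apply_symm_apply, φ.symm.injective.eq_iff] at ha
  let b : ↥Q := ⟨h * s * h⁻¹, Subgroup.Normal.conj_mem inferInstance _ s.2 h⟩
  have hb : pr b = pr t := (hA.act_pr h s b rfl).symm.trans ha
  have ht0 : pr t ≠ 0 := fun e => ht.1 (by rw [e, Equiv.symm_apply_eq, hfr.map_zero])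
  obtain ⟨c, hc⟩ := exists_conj_of_pr_eq hF hA hb (hb ▸ ht0)
  refine ⟨(c : Subgroup.centralizer ({z} : Set G)) * h, ?_⟩
  rw [← hc]
  simp only [b, Subgroup.coe_mul, InvMemClass.coe_inv]
  group

/-- Among the involutions of `Q` other than `z` the conjugates of `z` are those of the second orbit. -/
theorem isConj_iff_inTwo (hF : IsOfLargeFischerTypeAt z Q) (hA : IsAction z Q q pr act)
    (hfr : IsFrame q act Mb Cb φ) (hk : IsOrbitClass (Mb.map (frameHom φ act)) k) (s : ↥Q)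
    (hs1 : ((s : Subgroup.centralizer ({z} : Set G)) : G) ≠ z) :
    IsConj z ((s : Subgroup.centralizer ({z} : Set G)) : G) ↔ inTwo k (φ.symm (pr s)) := by
  refine ⟨fun h => conj_inTwo hF hA hfr hk s h hs1, fun h => ?_⟩
  obtain ⟨g, ⟨hq, hgQ⟩, hne⟩ := hF.1.2.2.2.2
  obtain ⟨c, hc⟩ := exists_conj_of_inTwo hF hA hfr hk ⟨⟨g * z * g⁻¹, hq⟩, hgQ⟩ s
    (conj_inTwo hF hA hfr hk _ (isConj_iff.2 ⟨g, rfl⟩) hne) h
  refine isConj_iff.2 ⟨(c : G) * g, ?_⟩
  rw [← hc]
  simp only [Subgroup.coe_mul, InvMemClass.coe_inv]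
  group

/-- The conjugates of `z` in `Q` other than `z` form one orbit of `H`. -/
theorem conjugate_orbit (hF : IsOfLargeFischerTypeAt z Q) (hA : IsAction z Q q pr act)
    (hfr : IsFrame q act Mb Cb φ) (hk : IsOrbitClass (Mb.map (frameHom φ act)) k) (s t : G)
    (hsQ : ∃ hsc : s ∈ Subgroup.centralizer ({z} : Set G),
      (⟨s, hsc⟩ : Subgroup.centralizer ({z} : Set G)) ∈ Q)
    (htQ : ∃ htc : t ∈ Subgroup.centralizer ({z} : Set G),
      (⟨t, htc⟩ : Subgroup.centralizer ({z} : Set G)) ∈ Q)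
    (hs : IsConj z s) (ht : IsConj z t) (hs1 : s ≠ z) (ht1 : t ≠ z) :
    ∃ h ∈ Subgroup.centralizer ({z} : Set G), h * s * h⁻¹ = t := by
  obtain ⟨hsc, hsQ⟩ := hsQ
  obtain ⟨htc, htQ⟩ := htQ
  obtain ⟨h, hh⟩ := exists_conj_of_inTwo hF hA hfr hk ⟨⟨s, hsc⟩, hsQ⟩ ⟨⟨t, htc⟩, htQ⟩
    (conj_inTwo hF hA hfr hk _ hs hs1) (conj_inTwo hF hA hfr hk _ ht ht1)
  exact ⟨h, h.2, congrArg Subtype.val hh⟩

end CfsgLib.LargeFischer88
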