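import Cfsg.Agent.LargeFischer85.Defs

/-!
Large Fischer type: the monomial permutations of the numbers below `4096` as a homomorphism, and the two
families of monomial stabilisers used for the stabilisers of the two singular orbits.
-/

set_option autoImplicit false

namespace CfsgLib.LargeFischer88

open CfsgLib.LargeFischer85

theorem dig_lt4 (n i : ℕ) : dig n i < 4 := Nat.mod_lt _ (by norm_num)

theorem dig_mkN (f : Fin 6 → ℕ) (hf : ∀ i, f i < 4) (j : Fin 6) : dig (mkN f).val j.val = f j := by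
  have h0 := hf 0
  have h1 := hf 1
  have h2 := hf 2
  have h3 := hf 3
  have h4 := hf 4
  have h5 := hf 5
  fin_cases j <;> simp [dig, mkN] <;> omega

theorem ext_dig {a b : Fin 4096} (h : ∀ i : Fin 6, dig a.val i.val = dig b.val i.val) : a = b := by
  have h0 := h 0
  have h1 := h 1
  have h2 := h 2
  have h3 := h 3
  have h4 := h 4
  have h5 := h 5
  have ha := a.2
  have hb := b.2
  simp only [dig] at h0 h1 h2 h3 h4 h5
  norm_num at h0 h1 h2 h3 h4 h5
  exact Fin.ext (by omega)

theorem scal_lt4 (k : ZMod 3) (d : ℕ) : scal k d < 4 := by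
  unfold scal
  split <;> omega

theorem scal_zero_fin : ∀ d : Fin 4, scal 0 d.val = d.val := by decide

theorem scal_scal_fin : ∀ (a b : ZMod 3) (d : Fin 4), scal a (scal b d.val) = scal (a + b) d.val := by
  decide

theorem scal_scal (a b : ZMod 3) (n i : ℕ) : scal a (scal b (dig n i)) = scal (a + b) (dig n i) :=
  scal_scal_fin a b ⟨_, dig_lt4 n i⟩

theorem scal_one_inj : ∀ a b : ZMod 3, scal a 1 = scal b 1 → a = b := by decide

theorem scal_one_ne_zero : ∀ a : ZMod 3, scal a 1 ≠ 0 := by decide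

theorem dig_monF (σ : Equiv.Perm (Fin 6)) (ε : Fin 6 → ZMod 3) (n : Fin 4096) (j : Fin 6) :
    dig (monF σ ε n).val j.val = scal (ε (σ.symm j)) (dig n.val (σ.symm j).val) :=
  dig_mkN _ (fun _ => scal_lt4 _ _) j

theorem monF_comp (σ τ : Equiv.Perm (Fin 6)) (ε δ : Fin 6 → ZMod 3) (n : Fin 4096) :
    monF σ ε (monF τ δ n) = monF (σ * τ) (fun i => δ i + ε (τ i)) n := by
  refine ext_dig fun j => ?_
  have e : (σ * τ).symm j = τ.symm (σ.symm j) := rfl
  rw [dig_monF, dig_monF, dig_monF, scal_scal, e, Equiv.apply_symm_apply, add_comm]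

theorem monF_one (n : Fin 4096) : monF 1 0 n = n := by
  refine ext_dig fun j => ?_
  rw [dig_monF]
  exact scal_zero_fin ⟨_, dig_lt4 _ _⟩

/-- The monomial permutation. -/
def monP (σ : Equiv.Perm (Fin 6)) (ε : Fin 6 → ZMod 3) : Equiv.Perm (Fin 4096) where
  toFun := monF σ ε
  invFun := monF σ⁻¹ (fun i => -ε (σ⁻¹ i))
  left_inv n := by
    rw [monF_comp, inv_mul_cancel,
      show (fun i => ε i + -ε (σ⁻¹ (σ i))) = (0 : Fin 6 → ZMod 3) from funext fun i => by simp]
    exact monF_one n
  right_inv n := by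
    rw [monF_comp, mul_inv_cancel,
      show (fun i => -ε (σ⁻¹ i) + ε (σ⁻¹ i)) = (0 : Fin 6 → ZMod 3) from funext fun i => by simp]
    exact monF_one n

theorem monP_apply (σ : Equiv.Perm (Fin 6)) (ε : Fin 6 → ZMod 3) (n : Fin 4096) :
    monP σ ε n = monF σ ε n := rfl

theorem monP_mul (σ τ : Equiv.Perm (Fin 6)) (ε δ : Fin 6 → ZMod 3) :
    monP σ ε * monP τ δ = monP (σ * τ) (fun i => δ i + ε (τ i)) :=
  Equiv.ext fun n => monF_comp σ τ ε δ n

theorem monP_one : monP 1 0 = 1 := Equiv.ext fun n => monF_one n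

/-- The vector with one digit one. -/
def unitN (i : Fin 6) : Fin 4096 := mkN fun j => if j = i then 1 else 0

theorem dig_unitN (i j : Fin 6) : dig (unitN i).val j.val = if j = i then 1 else 0 :=
  dig_mkN (fun j => if j = i then 1 else 0) (fun _ => by split <;> norm_num) j

theorem monP_inj {σ τ : Equiv.Perm (Fin 6)} {ε δ : Fin 6 → ZMod 3} (h : monP σ ε = monP τ δ) :
    σ = τ ∧ ε = δ := by
  have key : ∀ i, σ i = τ i ∧ ε i = δ i := by
    intro i
    have e := congrArg (fun f : Equiv.Perm (Fin 4096) => dig (f (unitN i)).val (σ i).val) h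
    simp only [monP_apply, dig_monF, Equiv.symm_apply_apply, dig_unitN, if_true] at e
    by_cases hi : τ.symm (σ i) = i
    · rw [if_pos hi, hi] at e
      exact ⟨(Equiv.symm_apply_eq τ).1 hi, scal_one_inj _ _ e⟩
    · rw [if_neg hi] at e
      exact absurd (by simpa [scal] using e) (scal_one_ne_zero (ε i))
  exact ⟨Equiv.ext fun i => (key i).1, funext fun i => (key i).2⟩

/-- The exponents of the monomial map fixing the vector with exponents `e`. -/
def twistE (e : Fin 6 → ZMod 3) (σ : Equiv.Perm (Fin 6)) : Fin 6 → ZMod 3 := fun i => e (σ i) - e i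

theorem sum_twistE (e : Fin 6 → ZMod 3) (σ : Equiv.Perm (Fin 6)) : ∑ i, twistE e σ i = 0 := by
  simp [twistE, Finset.sum_sub_distrib, Equiv.sum_comp σ e]

/-- The symmetric group conjugated by a diagonal map. -/
def homE (e : Fin 6 → ZMod 3) : Equiv.Perm (Fin 6) →* Equiv.Perm (Fin 4096) :=
  MonoidHom.mk' (fun σ => monP σ (twistE e σ)) fun σ τ => by
    rw [monP_mul]
    exact congrArg _ (funext fun i => by simp [twistE])

theorem homE_apply (e : Fin 6 → ZMod 3) (σ : Equiv.Perm (Fin 6)) : homE e σ = monP σ (twistE e σ) := rfl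

theorem homE_injective (e : Fin 6 → ZMod 3) : Function.Injective (homE e) := fun _ _ h => (monP_inj h).1

/-- The vector with all digits nonzero and given exponents. -/
def vecE (e : Fin 6 → ZMod 3) : Fin 4096 := mkN fun i => scal (e i) 1

theorem homE_vecE (e : Fin 6 → ZMod 3) (σ : Equiv.Perm (Fin 6)) : homE e σ (vecE e) = vecE e := by
  refine ext_dig fun j => ?_
  rw [homE_apply, monP_apply, dig_monF, vecE, dig_mkN _ (fun _ => scal_lt4 _ _) j,
    dig_mkN _ (fun _ => scal_lt4 _ _) (σ.symm j)]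
  simp only [twistE, Equiv.apply_symm_apply]
  rw [show scal (e j - e (σ.symm j)) (scal (e (σ.symm j)) 1) = _ from
    scal_scal_fin _ _ ⟨1, by norm_num⟩, sub_add_cancel]

/-- A vector of weight six in the second orbit for the class `k`. -/
def twoVec (k : ZMod 3) : Fin 4096 := vecE (Pi.single 0 (k + 1))

theorem inTwo_twoVec : ∀ k, inTwo k (twoVec k) := by decide +kernel

/-- A vector of weight two. -/
def oneVec : Fin 4096 := 5

theorem inOne_oneVec : ∀ k, inOne k oneVec := by decide +kernel

/-- The permutations of the stabiliser of the weight two vector forming a group of order eight. -/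
def eightGroup : Subgroup (Equiv.Perm (Fin 6)) where
  carrier := {σ | Equiv.Perm.sign σ = 1 ∧ σ * Equiv.swap 0 1 = Equiv.swap 0 1 * σ ∧
    σ * (Equiv.swap 2 4 * Equiv.swap 3 5) = (Equiv.swap 2 4 * Equiv.swap 3 5) * σ}
  one_mem' := ⟨map_one _, by simp, by simp⟩
  mul_mem' := by
    rintro a b ⟨ha, ha', ha''⟩ ⟨hb, hb', hb''⟩
    exact ⟨by rw [map_mul, ha, hb, one_mul],
      (Commute.mul_left (ha' : Commute a _) (hb' : Commute b _)),
      (Commute.mul_left (ha'' : Commute a _) (hb'' : Commute b _))⟩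
  inv_mem' := by
    rintro a ⟨ha, ha', ha''⟩
    exact ⟨by rw [map_inv, ha, inv_one], Commute.inv_left (show Commute a _ from ha'),
      Commute.inv_left (show Commute a _ from ha'')⟩

instance decEightGroup : DecidablePred (· ∈ eightGroup) := fun σ =>
  inferInstanceAs (Decidable (Equiv.Perm.sign σ = 1 ∧ σ * Equiv.swap 0 1 = Equiv.swap 0 1 * σ ∧
    σ * (Equiv.swap 2 4 * Equiv.swap 3 5) = (Equiv.swap 2 4 * Equiv.swap 3 5) * σ))

theorem card_eightGroup : Nat.card eightGroup = 8 := by
  rw [Nat.card_eq_fintype_card]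
  decide +kernel

theorem eightGroup_fix : ∀ σ : Equiv.Perm (Fin 6), σ ∈ eightGroup → monF σ 0 oneVec = oneVec := by
  decide +kernel

/-- Three diagonal exponents fixing the weight two vector. -/
def sepExp : Fin 3 → Fin 6 → ZMod 3 :=
  ![![0, 0, 1, 2, 0, 0], ![0, 0, 0, 0, 1, 2], ![0, 0, 1, 0, 2, 0]]

theorem sum_sepExp : ∀ r, ∑ i, sepExp r i = 0 := by decide

theorem sepExp_fix : ∀ r, monF 1 (sepExp r) oneVec = oneVec := by decide +kernel

theorem eightGroup_separated : ∀ σ : Equiv.Perm (Fin 6), σ ∈ eightGroup →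
    (∀ r i, sepExp r (σ i) = sepExp r i) → σ = 1 := by decide +kernel

theorem card_inOne : ∀ k, (Finset.univ.filter fun n : Fin 4096 => inOne k n).card = 378 := by
  decide +kernel

theorem card_inTwo : ∀ k, (Finset.univ.filter fun n : Fin 4096 => inTwo k n).card = 1701 := by
  decide +kernel

end CfsgLib.LargeFischer88
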